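import Mathlib

/-! S4197: arithmetic. -/

set_option autoImplicit false

namespace Cfsg.Lib.KC

theorem num1 (c : ℕ) : (3 * c + 7) * 3 ^ c ≤ 8 * 4 ^ c := by
  induction c with
  | zero => norm_num
  | succ c ih =>
    rcases c with _ | c
    · norm_num
    · rw [pow_succ 3, pow_succ 4]; nlinarith [Nat.zero_le (3 ^ (c + 1)), Nat.zero_le (c * 3 ^ (c + 1))]

theorem num2 (c e : ℕ) : (c + 1) * (e + 3) ≤ 4 + (3 * c + 1) * 2 ^ e := by
  induction e with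
  | zero => omega
  | succ e ih => rw [pow_succ]; nlinarith [Nat.one_le_two_pow (n := e)]

theorem num3 {x y j : ℕ} (h : x * 4 ^ j ≤ 3 ^ j * y) : x ≤ y :=
  Nat.le_of_mul_le_mul_right (h.trans ((Nat.mul_le_mul_right _ (Nat.pow_le_pow_left (by omega) j)).trans_eq
    (mul_comm _ _))) (by positivity : 0 < 4 ^ j)

theorem num {k W c₂ c₃ a m : ℕ} (hm : m ≤ 2 * c₂ + c₃ * a) (he : c₃ = 0 → m = 2 * c₂)
    (hA : 8 ≤ m → k * (c₂ + 1) * 4 ^ c₃ ≤ 3 ^ c₃ * W) (h0 : 2 * k ≤ W)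
    (hB : 1 ≤ c₃ → 3 ≤ a ∧ k * 2 ^ (a - 1) * 4 ^ (c₃ - 1) ≤ 3 ^ (c₃ - 1) * W) : k * (m - 2) ≤ 2 * W := by
  rcases c₃ with _ | c
  · have := he rfl
    by_cases h : 8 ≤ m
    · have h1 := hA h
      have := Nat.mul_le_mul_left k (show m - 2 ≤ 2 * (c₂ + 1) by omega)
      nlinarith
    · have := Nat.mul_le_mul_left k (show m - 2 ≤ 4 by omega)
      omega
  obtain ⟨h1, h2⟩ := hB (by omega)
  obtain ⟨e, rfl⟩ : ∃ e, a = e + 3 := ⟨a - 3, by omega⟩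
  rw [show e + 3 - 1 = e + 2 from rfl, Nat.add_sub_cancel] at h2
  by_cases h : 8 ≤ m
  · have h3 := hA h
    have h4 := num2 c e
    have h5 := Nat.mul_le_mul_left k (show m - 2 ≤ 2 * (c₂ + 1) + (3 * c + 1) * 2 ^ e by omega)
    refine Nat.le_of_mul_le_mul_right ?_ (by positivity : 0 < 4 ^ (c + 1))
    calc k * (m - 2) * 4 ^ (c + 1) ≤ k * (2 * (c₂ + 1) + (3 * c + 1) * 2 ^ e) * 4 ^ (c + 1) :=
          Nat.mul_le_mul_right _ h5
      _ = 2 * (k * (c₂ + 1) * 4 ^ (c + 1)) + (3 * c + 1) * (k * 2 ^ (e + 2) * 4 ^ c) := by ring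
      _ ≤ 2 * (3 ^ (c + 1) * W) + (3 * c + 1) * (3 ^ c * W) := by gcongr
      _ = (3 * c + 7) * 3 ^ c * W := by ring
      _ ≤ 8 * 4 ^ c * W := Nat.mul_le_mul_right _ (num1 c)
      _ = _ := by ring
  · have h3 := num3 h2
    have := Nat.mul_le_mul_left k (show m - 2 ≤ 5 by omega)
    have := Nat.mul_le_mul_left k (show 4 ≤ 2 ^ (e + 2) by rw [pow_add]; nlinarith [Nat.one_le_two_pow (n := e)])
    omega

theorem num4 (j : ℕ) : 4 * j ≤ 3 * 2 ^ j := by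
  rcases j with _ | _ | j
  · omega
  · omega
  · have := j.lt_two_pow_self
    rw [add_assoc, pow_add]; omega

theorem num5 {k m : ℕ} (hm : 3 ≤ m) (h : k * (m - 2) ≤ 3 * 2 ^ (m - 2)) : 4 + k * (m - 3) ≤ 3 * 2 ^ (m - 2) := by
  obtain ⟨j, rfl⟩ : ∃ j, m = j + 3 := ⟨m - 3, by omega⟩
  rw [show j + 3 - 2 = j + 1 from rfl, Nat.add_sub_cancel] at *
  by_cases c : 4 ≤ k
  · nlinarith
  · have := Nat.mul_le_mul_right j (show k ≤ 3 by omega)
    have := (j + 1).lt_two_pow_self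
    omega

end Cfsg.Lib.KC
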