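import Cfsg.Agent.Lib.KC.Dbl
import Cfsg.Agent.Lib.KC.Num

/-! S4197: groups with an invariant partition. -/

set_option autoImplicit false

namespace Cfsg.Lib.KC

open Equiv Finset Cfsg.Lib.SNL
open scoped Pointwise

variable {α : Type*} [Fintype α] [DecidableEq α] {H N : Subgroup (Perm α)} {R : Finset α} {P E : Finset (Finset α)}

omit [Fintype α] in
theorem prod_bd (hs : ∀ B ∈ E, 2 ≤ #B) (IH : ∀ B ∈ E, KK #B ≤ bd #B) :
    (∏ B ∈ E, KK #B) * 4 ^ #{B ∈ E | #B ≠ 2} ≤ 3 ^ #{B ∈ E | #B ≠ 2} * ∏ B ∈ E, 2 ^ (#B - 1) := by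
  induction E using Finset.induction_on with
  | empty => simp
  | insert C E hC ih =>
    have h1 := ih (fun B h => hs B (mem_insert_of_mem h)) fun B h => IH B (mem_insert_of_mem h)
    have h2 := IH C (mem_insert_self _ _)
    rw [prod_insert hC, prod_insert hC, filter_insert]
    split_ifs with c
    · have h3 := bd_eq (n := #C) (by have := hs C (mem_insert_self _ _); omega)
      rw [card_insert_of_notMem fun e => hC (mem_filter.1 e).1, pow_succ, pow_succ]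
      calc _ = 4 * KK #C * ((∏ B ∈ E, KK #B) * 4 ^ #{B ∈ E | #B ≠ 2}) := by ring
        _ ≤ 3 * 2 ^ (#C - 1) * _ := Nat.mul_le_mul (by omega) h1
        _ = _ := by ring
    · rw [mul_assoc, mul_left_comm (3 ^ _)]
      exact Nat.mul_le_mul (h2.trans (bd_le _)) h1

theorem prod_two (h : Cells H R P) (hs : ∀ B ∈ P, 2 ≤ #B) : 2 ^ #P * ∏ B ∈ P, 2 ^ (#B - 1) = 2 ^ #R := by
  rw [prod_pow_eq_pow_sum, ← pow_add, ← h.sum_card, card_eq_sum_ones P, ← sum_add_distrib]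
  exact congrArg _ (sum_congr rfl fun B hB => by have := hs B hB; omega)

theorem cell_sub (h : Cells H R P) {B : Finset α} (hB : B ∈ P) : #B ≤ #R := card_le_card (h.sub B hB)

theorem cell_card (h : Cells H R P) (hs : ∀ B ∈ P, 2 ≤ #B) : 2 * #P ≤ #R := by
  rw [← h.sum_card, mul_comm, ← smul_eq_mul]; exact card_nsmul_le_sum _ _ _ hs

theorem cell (IH : ∀ j ≤ #R, KK j ≤ bd j) (h : Cells H R P) (hH : H ≤ Fx Rᶜ) (h2 : 2 ≤ #P) (hs : ∀ B ∈ P, 2 ≤ #B)
    (hD : ∀ B ∈ P, ∀ g ∈ H, (∀ x ∉ B, g x = x) → g = 1) (hμ : 8 ≤ #R → MinD H 5) :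
    kc H * (#R - 2) ≤ 3 * 2 ^ (#R - 2) := by
  obtain ⟨N, hN, hi, hk⟩ := kc_fam h.inv
  obtain ⟨C, hC, hm⟩ := exists_max_image P card (card_pos.1 (by omega))
  have IH' : ∀ B ∈ P, KK #B ≤ bd #B := fun B hB => IH _ (cell_sub h hB)
  have hW := prod_two h hs
  have hc := cell_card h hs
  have hC2 := hs C hC
  have out : ∀ g ∈ N, ∀ x, x ∉ R → g x = x := fun g hg x hx => hH (hN hg) x (mem_compl.2 hx)
  -- delete a largest cell
  obtain ⟨T, a, b, c⟩ := kc_prod (K := N) (E := P.erase C) fun g hg B hB => hi g hg B (mem_of_mem_erase hB)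
  have hT : T = ⊥ := eq_bot_iff.2 fun g hg => hD C hC g (hN (a hg)) fun x hx => (em (x ∈ R)).elim
    (fun e => let ⟨B, k, k'⟩ := h.cov x e; b g hg B (mem_erase.2 ⟨fun j => hx (j ▸ k'), k⟩) x k') (out g (a hg) x)
  rw [hT, kc_bot, mul_one] at c
  have p1 := prod_bd (E := P.erase C) (fun B hB => hs B (mem_of_mem_erase hB)) fun B hB => IH' B (mem_of_mem_erase hB)
  have e1 := mul_prod_erase P (fun B => 2 ^ (#B - 1)) hC
  have hB : kc N * 2 ^ (#C - 1) * 4 ^ #{B ∈ P.erase C | #B ≠ 2} ≤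
      3 ^ #{B ∈ P.erase C | #B ≠ 2} * ∏ B ∈ P, 2 ^ (#B - 1) := by
    rw [← e1, mul_left_comm, mul_comm (kc N), mul_assoc]
    exact Nat.mul_le_mul_left _ ((Nat.mul_le_mul_right _ c).trans p1)
  have hB' := num3 hB
  generalize hWd : ∏ B ∈ P, 2 ^ (#B - 1) = W at *
  obtain ⟨m, hm'⟩ : ∃ m, #R = m + 2 := ⟨#R - 2, by omega⟩
  by_cases c2 : #P = 2
  · have h1 : KK #P ≤ 2 := by rw [c2]; exact (IH 2 (by omega)).trans (bd_le 2)
    have h3 : #R ≤ 2 * #C := by rw [← h.sum_card, ← c2, ← smul_eq_mul]; exact sum_le_card_nsmul _ _ _ hm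
    have h4 := Nat.mul_le_mul_left (kc N) (num4 (#C - 1))
    have h5 := Nat.mul_le_mul (hk.trans (Nat.mul_le_mul_right _ h1)) (show #R - 2 ≤ 2 * (#C - 1) by omega)
    rw [c2, hm', pow_add] at hW
    rw [hm', Nat.add_sub_cancel] at h5 ⊢
    nlinarith
  have key : kc N * (#R - 2) ≤ 2 * W := by
    have s1 := sum_filter_add_sum_filter_not P (fun B => #B = 2) card
    have s2 : ∑ B ∈ P with #B = 2, #B = 2 * #{B ∈ P | #B = 2} := by
      rw [sum_congr rfl fun B hB => (mem_filter.1 hB).2, sum_const, smul_eq_mul, mul_comm]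
    have s3 : ∑ B ∈ P with ¬ #B = 2, #B ≤ #{B ∈ P | #B ≠ 2} * #C :=
      sum_le_card_nsmul {B ∈ P | ¬ #B = 2} card _ fun B hB => hm B (mem_filter.1 hB).1
    rw [h.sum_card, s2] at s1
    refine num (c₂ := #{B ∈ P | #B = 2}) (c₃ := #{B ∈ P | #B ≠ 2}) (a := #C) (by omega)
      (fun e => by rw [e, zero_mul] at s3; omega) (fun h8 => ?_) ?_ fun e => ?_
    · obtain ⟨T, a, b, c⟩ := kc_prod (K := N) (E := {B ∈ P | #B ≠ 2}) fun g hg B hB => hi g hg B (mem_filter.1 hB).1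
      have p2 := prod_bd (E := {B ∈ P | #B ≠ 2}) (fun B hB => hs B (mem_filter.1 hB).1)
        fun B hB => IH' B (mem_filter.1 hB).1
      have p3 := ham (N := T) (P := {B ∈ P | #B = 2}) (fun B hB => (mem_filter.1 hB).2)
        (fun g hg B hB => hi g (a hg) B (mem_filter.1 hB).1) (fun g hg x hx => (em (x ∈ R)).elim
          (fun e => let ⟨B, k, k'⟩ := h.cov x e
            b g hg B (mem_filter.2 ⟨k, fun j => hx B (mem_filter.2 ⟨k, j⟩) k'⟩) x k') (out g (a hg) x))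
        fun g hg => hμ h8 g (hN (a hg))
      have p4 := prod_filter_mul_prod_filter_not P (fun B => #B = 2) fun B => 2 ^ (#B - 1)
      rw [prod_congr rfl fun B hB => by rw [(mem_filter.1 hB).2], prod_const, hWd] at p4
      rw [filter_filter] at p2
      simp only [and_self] at p2
      calc _ ≤ (∏ B ∈ P with #B ≠ 2, KK #B) * Nat.card T * (#{B ∈ P | #B = 2} + 1) * 4 ^ #{B ∈ P | #B ≠ 2} := by
            gcongr; exact c.trans (Nat.mul_le_mul_left _ (kc_le_card T))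
        _ = Nat.card T * (#{B ∈ P | #B = 2} + 1) * ((∏ B ∈ P with #B ≠ 2, KK #B) * 4 ^ #{B ∈ P | #B ≠ 2}) := by ring
        _ ≤ _ := Nat.mul_le_mul p3 p2
        _ = _ := by rw [← p4]; ring
    · refine le_trans ?_ hB'
      rw [mul_comm]
      exact Nat.mul_le_mul_left _ (Nat.le_self_pow (by omega) 2)
    · obtain ⟨B, hB1⟩ := card_pos.1 e
      have := hm B (mem_filter.1 hB1).1
      have := hs B (mem_filter.1 hB1).1
      have := (mem_filter.1 hB1).2
      refine ⟨by omega, ?_⟩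
      rwa [filter_erase, card_erase_of_mem (mem_filter.2 ⟨hC, by omega⟩)] at hB
  have h1 := IH #P (by omega)
  have h3 := bd_eq (n := #P) (by omega)
  obtain ⟨p, hp⟩ : ∃ p, #P = p + 1 := ⟨#P - 1, by omega⟩
  rw [hp, hm', pow_succ, pow_add] at hW
  rw [hp, Nat.add_sub_cancel] at h3
  rw [hp] at h1 hk
  calc _ ≤ bd (p + 1) * kc N * (#R - 2) := Nat.mul_le_mul_right _ (hk.trans (Nat.mul_le_mul_right _ h1))
    _ ≤ bd (p + 1) * (2 * W) := by rw [mul_assoc]; exact Nat.mul_le_mul_left _ key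
    _ ≤ _ := by rw [hm', Nat.add_sub_cancel]; nlinarith

end Cfsg.Lib.KC
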