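import Cfsg.Agent.Lib.KC.Def
import Cfsg.Agent.S0713

/-! S4197: minimal degree of primitive groups; the Hamming bound. -/

set_option autoImplicit false

namespace Cfsg.Lib.KC

open Equiv Finset Cfsg.Lib.SNL
open scoped Pointwise

variable {α : Type*} [Fintype α] [DecidableEq α] {M N : Subgroup (Perm α)} {P : Finset (Finset α)} {a b c d u v : α}

/-- `Pr.prim`; supports of size `1` do not exist, size `2` is a swap, size `3` a 3-cycle
(`Equiv.Perm.card_support_eq_two`, `card_support_eq_three_iff`, Mathlib's `GroupAction/Jordan`). -/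
theorem mind4 (h : Pr M univ) (hA : ¬ alternatingGroup α ≤ M) : MinD M 4 := by
  intro g hg g1
  by_contra! c
  have := Perm.one_lt_card_support_of_ne_one g1
  obtain e | e : #g.support = 2 ∨ #g.support = 3 := by omega
  · exact hA (Perm.subgroup_eq_top_of_isPreprimitive_of_isSwap_mem h.prim g (Perm.card_support_eq_two.1 e) hg ▸ le_top)
  · exact hA (Perm.alternatingGroup_le_of_isPreprimitive_of_isThreeCycle_mem h.prim (card_support_eq_three_iff.1 e) hg)

/-- A Klein four-group on `B = {a, b, c, d}` makes `B` a Jordan set: `jordan_small`. -/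
theorem no_klein (h : Pr M univ) (h9 : 9 ≤ Fintype.card α) (hA : ¬ alternatingGroup α ≤ M) (hd : [a, b, c, d].Nodup)
    (h1 : swap a b * swap c d ∈ M) : swap a c * swap b d ∉ M := by
  intro h2
  simp only [List.nodup_cons, List.mem_cons, List.not_mem_nil, or_false, not_or, not_false_eq_true, List.nodup_nil,
    and_true] at hd
  have k1 : swap a b * swap c d ∈ M ⊓ Fx ({a, b, c, d}ᶜ : Finset α) := ⟨h1, fun x hx => by
    simp only [mem_compl, mem_insert, mem_singleton, not_or] at hx
    simp [swap_apply_of_ne_of_ne, hx]⟩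
  have k2 : swap a c * swap b d ∈ M ⊓ Fx ({a, b, c, d}ᶜ : Finset α) := ⟨h2, fun x hx => by
    simp only [mem_compl, mem_insert, mem_singleton, not_or] at hx
    simp [swap_apply_of_ne_of_ne, hx]⟩
  refine hA (jordan_small (B := {a, b, c, d}) h (one_lt_card.2 ⟨a, by simp, b, by simp, hd.1.1⟩) (by
    have := card_le_four (a := a) (b := b) (c := c) (d := d)
    omega) (cx_tr (x := a) _ fun x hx => mem_orb.2 ?_))
  simp only [mem_insert, mem_singleton] at hx
  rcases hx with rfl | rfl | rfl | rfl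
  · exact ⟨1, one_mem _, rfl⟩
  · exact ⟨_, k1, by simp [swap_apply_of_ne_of_ne, hd]⟩
  · exact ⟨_, k2, by simp [swap_apply_of_ne_of_ne, hd]⟩
  · exact ⟨_, mul_mem k1 k2, by simp [swap_apply_of_ne_of_ne, hd, Ne.symm hd.1.2.2, Ne.symm hd.2.1.2]⟩

theorem no_five (h : Pr M univ) (h9 : 9 ≤ Fintype.card α) (hA : ¬ alternatingGroup α ≤ M)
    (hd : [a, d, c, b, u].Nodup) (h1 : swap a b * swap c d ∈ M) : swap a c * swap b u ∉ M := fun h2 => by
  refine hA (Agent.S0713.result M h.prim Nat.prime_five (by omega) (by omega) (List.isCycle_formPerm hd (by simp))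
    (by rw [List.support_formPerm_of_nodup _ hd (by simp), List.toFinset_card_of_nodup hd]; rfl) ?_)
  convert mul_mem h1 h2 using 1
  simp only [List.nodup_cons, List.mem_cons, List.not_mem_nil, or_false, not_or, not_false_eq_true, List.nodup_nil,
    and_true] at hd
  ext y
  simp only [List.formPerm_cons_cons, List.formPerm_singleton, Perm.mul_apply, Perm.one_apply, swap_apply_def]
  grind

omit [Fintype α] in
theorem swap_swap_comm (hd : [a, b, c, d].Nodup) : swap a b * swap c d = swap c d * swap a b := by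
  simp only [List.nodup_cons, List.mem_cons, List.not_mem_nil, or_false, not_or, not_false_eq_true, List.nodup_nil,
    and_true] at hd
  ext y
  simp only [Perm.mul_apply, swap_apply_def]
  grind

/-- Let `x = (a b) (c d)`, `z = (a c) (u v)`. If `{u, v} = {b, d}`: `no_klein`. If `u, v ∉ {b, d}` then
`(x z)² = (a c) (b d)`: `no_klein`. Otherwise `x z` is a 5-cycle (`(a c) (b e)` gives `a ↦ d ↦ c ↦ b ↦ e ↦ a`; the case
`(a c) (d e)` is the same with `a ↔ c`, `b ↔ d`): `Cfsg.Agent.S0713.result` with `p = 5` (support of size 5 and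
order 5, or `List.formPerm`/`isCycle` by `Equiv.Perm.IsCycle` directly). -/
theorem no_cross (h : Pr M univ) (h9 : 9 ≤ Fintype.card α) (hA : ¬ alternatingGroup α ≤ M) (hd : [a, b, c, d].Nodup)
    (h1 : swap a b * swap c d ∈ M) (hu : [a, c, u, v].Nodup) : swap a c * swap u v ∉ M := by
  have key : ∀ u v, [a, c, u, v].Nodup → u = b ∨ u = d → swap a c * swap u v ∉ M := by
    rintro u v hu (rfl | rfl) h2
    · by_cases e : v = d
      · exact no_klein h h9 hA hd h1 (e ▸ h2)
      · exact no_five h h9 hA (by grind) h1 h2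
    · by_cases e : v = b
      · exact no_klein h h9 hA hd h1 (swap_comm u b ▸ e ▸ h2)
      · exact no_five (a := c) (c := a) h h9 hA (by grind) (swap_swap_comm hd ▸ h1) (swap_comm a c ▸ h2)
  intro h2
  by_cases e : u = b ∨ u = d
  · exact key u v hu e h2
  by_cases e' : v = b ∨ v = d
  · exact key v u (by grind) e' (swap_comm u v ▸ h2)
  refine no_klein h h9 hA hd h1 ?_
  convert mul_mem (mul_mem h1 h2) (mul_mem h1 h2) using 1
  simp only [List.nodup_cons, List.mem_cons, List.not_mem_nil, or_false, not_or, not_false_eq_true, List.nodup_nil,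
    and_true] at hd hu
  ext y
  simp only [Perm.mul_apply, swap_apply_def]
  grind

/-- Let `x ~ y` mean `x = y` or `swap x y * swap u v ∈ M` for some `u v` with `[x, y, u, v].Nodup`. It is symmetric and
`M`-invariant. Transitive: if `x = (a b) (c d)`, `y = (a e) (u v)` are in `M`, `e ≠ b`, then `e ∉ {c, d}` by `no_cross`
and `x y x⁻¹ = (b e) (x u, x v)`. So `{y | a ~ y}` is a block containing `a ≠ b`, hence everything, and `a ~ c`
contradicts `no_cross`. -/
theorem no_dbl (h : Pr M univ) (h9 : 9 ≤ Fintype.card α) (hA : ¬ alternatingGroup α ≤ M) (hd : [a, b, c, d].Nodup) :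
    swap a b * swap c d ∉ M := by
  intro h1
  classical
  let R : α → α → Prop := fun x y => x = y ∨ ∃ u v, [x, y, u, v].Nodup ∧ swap x y * swap u v ∈ M
  have inv : ∀ g ∈ M, ∀ x y, R x y → R (g x) (g y) := by
    rintro g hg x y (rfl | ⟨u, v, n, m⟩)
    · exact .inl rfl
    · refine .inr ⟨g u, g v, n.map g.injective, ?_⟩
      have := mul_mem (mul_mem hg m) (inv_mem hg)
      rwa [← conj_mul, ← swap_apply_apply, ← swap_apply_apply] at this
  have tr : ∀ x y z, R x y → R x z → R y z := by
    rintro x y z (rfl | ⟨u, v, n, m⟩) k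
    · exact k
    by_cases e : y = z
    · exact .inl e
    have k' := k
    obtain rfl | ⟨u', v', n', m'⟩ := k'
    · exact .inr ⟨u, v, by grind, swap_comm x y ▸ m⟩
    have e1 : z ≠ u := by rintro rfl; exact no_cross h h9 hA n m n' m'
    have e2 : z ≠ v := by rintro rfl; exact no_cross h h9 hA (d := u) (by grind) (swap_comm u z ▸ m) n' m'
    have := inv _ m x z k
    simp only [List.nodup_cons, List.mem_cons, not_or] at n n'
    rwa [Perm.mul_apply, Perm.mul_apply, swap_apply_of_ne_of_ne n.1.2.1 n.1.2.2.1, swap_apply_left,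
      swap_apply_of_ne_of_ne e1 e2, swap_apply_of_ne_of_ne (Ne.symm n'.1.1) (Ne.symm e)] at this
  have sy : ∀ x y, R x y → R y x := fun x y k => tr x y x k (.inl rfl)
  refine (h.2 (univ.filter (R a)) (subset_univ _) fun g hg => or_iff_not_imp_right.2 fun k => ?_).elim
    (fun e => ?_) fun e => ?_
  rotate_left
  · exact absurd (card_le_one.1 e a (by simp [R]) b (mem_filter.2 ⟨mem_univ _, .inr ⟨c, d, hd, h1⟩⟩)) (by grind)
  · obtain e | ⟨u, v, n, m⟩ := (mem_filter.1 (e.ge (mem_univ c))).2
    · grind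
    · exact no_cross h h9 hA hd h1 n m
  · obtain ⟨y, h2, h3⟩ := not_disjoint_iff.1 k
    simp only [cx_mem, mem_filter, mem_univ, true_and] at h2 h3
    have h4 := inv g hg _ _ h2
    rw [show g (g⁻¹ y) = y by simp] at h4
    have h5 := tr _ _ _ (sy _ _ h4) (sy _ _ h3)
    ext z
    simp only [cx_mem, mem_filter, mem_univ, true_and]
    refine ⟨fun k => tr _ _ _ h5 (by simpa using inv g hg _ _ k), fun k => ?_⟩
    simpa using inv g⁻¹ (inv_mem hg) _ _ (tr _ _ _ (sy _ _ h5) k)

/-- An element with support of size `4` has cycle type `{2, 2}` or `{4}`; in the second case take its square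
(`g * g ≠ 1` has support inside, of size 4 by `mind4`, and order 2). Compare `SNL.mind3` in `Lib/SNL/Mu`. -/
theorem mind5 (h : Pr M univ) (h9 : 9 ≤ Fintype.card α) (hA : ¬ alternatingGroup α ≤ M) : MinD M 5 := by
  intro g₀ hg h1
  obtain ⟨p, hp, hd⟩ := Nat.exists_prime_and_dvd (mt orderOf_eq_one_iff.1 h1)
  have o := orderOf_pow_orderOf_div (orderOf_pos g₀).ne' hd
  refine le_trans ?_ (card_le_card (Perm.support_pow_le g₀ (orderOf g₀ / p)))
  have m := M.pow_mem hg (orderOf g₀ / p)
  generalize g₀ ^ (orderOf g₀ / p) = g at o m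
  have h2 := mind4 h hA g m fun e => hp.ne_one (by rw [← o, e, orderOf_one])
  obtain ⟨n, hn⟩ := Perm.cycleType_prime_order (o.symm ▸ hp)
  have s := g.sum_cycleType
  rw [hn, o, Multiset.sum_replicate, smul_eq_mul] at s
  by_contra! c
  have e : #g.support = 4 := by omega
  obtain rfl : p = 2 := (Nat.prime_dvd_prime_iff_eq hp Nat.prime_two).1
    (hp.dvd_of_dvd_pow (n := 2) ⟨n + 1, by rw [mul_comm, s, e]; rfl⟩)
  have gg : ∀ x, g (g x) = x := fun x => by rw [← Perm.mul_apply, ← sq, ← o, pow_orderOf_eq_one, Perm.one_apply]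
  obtain ⟨a, ha⟩ := card_pos.1 (show 0 < #g.support by omega)
  obtain ⟨b, hb⟩ := card_pos.1 (show 0 < #(g.support \ {a, g a}) by
    have := le_card_sdiff {a, g a} g.support
    have := card_le_two (a := a) (b := g a)
    omega)
  simp only [mem_sdiff, mem_insert, mem_singleton, not_or] at hb
  have n1 := Perm.mem_support.1 ha
  have n2 := Perm.mem_support.1 hb.1
  have n3 : g b ≠ a := fun c => hb.2.2 (by rw [← c, gg])
  have n4 : g b ≠ g a := g.injective.ne hb.2.1
  have nd : [a, g a, b, g b].Nodup := by simp [n1.symm, n2.symm, n3.symm, n4.symm, Ne.symm hb.2.1, Ne.symm hb.2.2]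
  have e1 : ({a, g a, b, g b} : Finset α) = g.support := eq_of_subset_of_card_le (by
    simp [insert_subset_iff, n1, n2]) (by rw [e]; simpa using (List.toFinset_card_of_nodup nd).ge)
  suffices swap a (g a) * swap b (g b) = g from no_dbl h h9 hA nd (this.symm ▸ m)
  ext x
  by_cases hx : x ∈ g.support
  · rw [← e1] at hx
    simp only [mem_insert, mem_singleton] at hx
    rcases hx with rfl | rfl | rfl | rfl <;>
      simp [swap_apply_of_ne_of_ne, gg, n3, n4, n3.symm, n4.symm, hb.2.1, hb.2.2, Ne.symm hb.2.1, Ne.symm hb.2.2]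
  · have := e1 ▸ hx
    simp only [mem_insert, mem_singleton, not_or] at this
    simp [swap_apply_of_ne_of_ne, this, Perm.notMem_support.1 hx]

/-- Let `S g = {B ∈ P | ∃ x ∈ B, g x ≠ x}`. On a cell `B = {x, y}` each `g ∈ N` is the identity or the swap. The map
`N × Option P → P.powerset`, `(g, none) ↦ S g`, `(g, some B) ↦ S g ∆ {B}` is injective: equal images give
`S (g⁻¹ * h) = S g ∆ S h ⊆ {B, B'}`, so `#(g⁻¹ * h).support ≤ 4`, `g = h`. -/
theorem ham (h2 : ∀ B ∈ P, #B = 2) (hi : ∀ g ∈ N, ∀ B ∈ P, g • B = B)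
    (hf : ∀ g ∈ N, ∀ x, (∀ B ∈ P, x ∉ B) → g x = x) (hμ : MinD N 5) : Nat.card N * (#P + 1) ≤ 2 ^ #P := by
  classical
  have h0 : ∅ ∉ P := fun m => by simpa using h2 _ m
  have cell : ∀ g ∈ N, ∀ k ∈ N, ∀ B ∈ P, ((∃ x ∈ B, g x ≠ x) ↔ ∃ x ∈ B, k x ≠ x) → ∀ x ∈ B, g x = k x :=
    fun g hg k hk B hB e x hx => by
    obtain ⟨y, z, ne, rfl⟩ := card_eq_two.1 (h2 B hB)
    have m : ∀ g ∈ N, ∀ x ∈ ({y, z} : Finset α), g x ∈ ({y, z} : Finset α) := fun g hg x hx =>
      hi g hg _ hB ▸ smul_mem_smul_finset hx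
    have g1 := m g hg y (by simp)
    have g2 := m g hg z (by simp)
    have k1 := m k hk y (by simp)
    have k2 := m k hk z (by simp)
    have g3 := g.injective.ne ne
    have k3 := k.injective.ne ne
    simp only [mem_insert, mem_singleton, exists_eq_or_imp, exists_eq_left] at e g1 g2 k1 k2 hx
    grind
  rw [← card_insert_of_notMem h0, ← card_powerset, ← Fintype.card_coe, ← Fintype.card_coe, ← Nat.card_eq_fintype_card,
    ← Nat.card_eq_fintype_card, ← Nat.card_prod]
  refine Nat.card_le_card_of_injective (fun p => ⟨P.filter fun B => (∃ x ∈ B, p.1.1 x ≠ x) ↔ B ≠ p.2.1,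
    mem_powerset.2 (filter_subset _ _)⟩) ?_
  rintro ⟨⟨g, hg⟩, C, hC⟩ ⟨⟨k, hk⟩, D, hD⟩ e
  have e' : ∀ B ∈ P, ((∃ x ∈ B, g x ≠ x) ↔ B ≠ C) ↔ ((∃ x ∈ B, k x ≠ x) ↔ B ≠ D) := fun B hB => by
    simpa only [mem_filter, hB, true_and] using Finset.ext_iff.1 (congrArg Subtype.val e) B
  have c2 : ∀ C ∈ insert ∅ P, #C ≤ 2 := fun C m => (mem_insert.1 m).elim (fun e => by simp [e]) fun m => (h2 C m).le
  obtain rfl : g = k := by
    by_contra ne
    have := (hμ (g⁻¹ * k) (mul_mem (inv_mem hg) hk) fun c => ne (inv_mul_eq_one.1 c)).trans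
      (card_le_card (t := C ∪ D) fun x hx => by_contra fun c => Perm.mem_support.1 hx ?_)
    · have := card_union_le C D
      have := c2 C hC
      have := c2 D hD
      omega
    rw [mem_union, not_or] at c
    rw [Perm.mul_apply, Perm.inv_eq_iff_eq]
    by_cases m : ∃ B ∈ P, x ∈ B
    · obtain ⟨B, hB, m⟩ := m
      have n1 : B ≠ C := fun e => c.1 (e ▸ m)
      have n2 : B ≠ D := fun e => c.2 (e ▸ m)
      exact (cell g hg k hk B hB (by simpa only [n1, n2, ne_eq, not_false_eq_true, iff_true] using e' B hB) x m).symm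
    · push Not at m
      rw [hf g hg x m, hf k hk x m]
  obtain rfl : C = D := by
    rcases mem_insert.1 hC with rfl | m
    · rcases mem_insert.1 hD with rfl | m'
      · rfl
      · have := e' D m'
        grind
    · have := e' C m
      grind
  rfl

end Cfsg.Lib.KC
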