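import Cfsg.Agent.Lib.SNL.Cell
import Cfsg.Agent.Lib.SNL.Cex
import Cfsg.Agent.Lib.SNL.MT
import Cfsg.Agent.S4201

/-! S4197 (class numbers of permutation groups): definitions and the basic inequalities.
`Fx orb Tr Pr MT MinD Cells` are in `Lib/SNL/Def`. -/

set_option autoImplicit false

namespace Cfsg.Lib.KC

open Equiv Finset Cfsg.Lib.SNL
open scoped Pointwise

/-- The class number. -/
noncomputable def kc {G : Type*} [Group G] (H : Subgroup G) : ℕ := Nat.card (ConjClasses H)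

open Classical in
/-- The largest class number of a permutation group of degree `n`. -/
noncomputable def KK (n : ℕ) : ℕ :=
  have := Fintype.ofFinite (Subgroup (Perm (Fin n)))
  univ.sup fun H : Subgroup (Perm (Fin n)) => kc H

/-- The bound that is proved by induction. -/
def bd (n : ℕ) : ℕ := if n ≤ 2 then 2 ^ (n - 1) else 3 * 2 ^ (n - 3)

theorem bd_le (n : ℕ) : bd n ≤ 2 ^ (n - 1) := by
  unfold bd
  split_ifs with h
  · rfl
  · obtain ⟨k, rfl⟩ : ∃ k, n = k + 3 := ⟨n - 3, by omega⟩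
    rw [show k + 3 - 1 = k + 2 from rfl, Nat.add_sub_cancel, pow_add]; omega

theorem bd_eq {n : ℕ} (h : 3 ≤ n) : 4 * bd n = 3 * 2 ^ (n - 1) := by
  obtain ⟨k, rfl⟩ : ∃ k, n = k + 3 := ⟨n - 3, by omega⟩
  rw [bd, if_neg (by omega), show k + 3 - 1 = k + 2 from rfl, Nat.add_sub_cancel, pow_add]; omega

section gen
variable {G G' : Type*} [Group G] [Group G'] {H : Subgroup G}

theorem classes_congr (e : G ≃* G') : Nat.card (ConjClasses G) = Nat.card (ConjClasses G') :=
  Nat.card_congr (Quotient.congr e.toEquiv fun _ _ =>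
    ⟨fun h => e.toMonoidHom.map_isConj h, fun h => by
      have := e.symm.toMonoidHom.map_isConj h
      rwa [MulEquiv.coe_toMonoidHom, MulEquiv.toEquiv_eq_coe, MulEquiv.coe_toEquiv, e.symm_apply_apply,
        e.symm_apply_apply] at this⟩)

theorem kc_map (φ : G →* G') (hφ : Function.Injective φ) (H : Subgroup G) : kc (H.map φ) = kc H :=
  (classes_congr (H.equivMapOfInjective φ hφ)).symm

theorem kc_pos [Finite G] (H : Subgroup G) : 0 < kc H := Nat.card_pos

theorem kc_le_card [Finite G] (H : Subgroup G) : kc H ≤ Nat.card H :=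
  Nat.card_le_card_of_surjective _ ConjClasses.mk_surjective

theorem kc_bot [Finite G] : kc (⊥ : Subgroup G) = 1 :=
  le_antisymm ((kc_le_card _).trans Subgroup.card_bot.le) (kc_pos _)

theorem le_KK {β : Type*} [Fintype β] [DecidableEq β] (H : Subgroup (Perm β)) : kc H ≤ KK (Fintype.card β) := by
  rw [← kc_map (Fintype.equivFin β).permCongrHom.toMonoidHom (Fintype.equivFin β).permCongrHom.injective]
  exact le_sup (f := fun H : Subgroup (Perm (Fin _)) => kc H) (@mem_univ _ (Fintype.ofFinite _) _)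

theorem KK_le {n b : ℕ} (h : ∀ H : Subgroup (Perm (Fin n)), kc H ≤ b) : KK n ≤ b := Finset.sup_le fun H _ => h H

theorem kc_le_act [Finite G] {β : Type*} [Fintype β] [DecidableEq β] (H : Subgroup G) (φ : H →* Perm β)
    (N : Subgroup G) (hN : ∀ g : H, φ g = 1 ↔ g.1 ∈ N) : kc H ≤ KK (Fintype.card β) * kc (H ⊓ N) := by
  have e : H ⊓ N = φ.ker.map H.subtype :=
    Subgroup.ext fun g => ⟨fun h => ⟨⟨g, h.1⟩, (hN _).2 h.2, rfl⟩, fun ⟨x, a, b⟩ => b ▸ ⟨x.2, (hN _).1 a⟩⟩
  rw [e, kc_map _ H.subtype_injective, mul_comm]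
  refine (Cfsg.Agent.S4201.result φ.ker).trans (Nat.mul_le_mul_left _ ?_)
  rw [classes_congr (QuotientGroup.quotientKerEquivRange φ)]
  exact le_KK _

end gen

variable {α : Type*} [Fintype α] [DecidableEq α] {K M : Subgroup (Perm α)} {R B Δ : Finset α}
  {P D E : Finset (Finset α)}

theorem kc_res (h : ∀ g ∈ K, ∀ x ∈ B, g x ∈ B) : kc K ≤ KK #B * kc (K ⊓ Fx B) := by
  letI : MulAction K B := { smul g x := ⟨g.1 x, h _ g.2 _ x.2⟩, one_smul _ := rfl, mul_smul _ _ _ := rfl }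
  have := kc_le_act K (MulAction.toPermHom K B) (Fx B) fun g => ⟨fun hg x hx =>
    congrArg (fun e : Perm B => (e ⟨x, hx⟩).1) hg, fun hg => Equiv.ext fun x => Subtype.ext (hg _ x.2)⟩
  rwa [Fintype.card_coe] at this

theorem kc_fam (h : ∀ g ∈ K, ∀ B ∈ E, g • B ∈ E) :
    ∃ N ≤ K, (∀ g ∈ N, ∀ B ∈ E, g • B = B) ∧ kc K ≤ KK #E * kc N := by
  letI : MulAction K E :=
    { smul g x := ⟨g.1 • x.1, h _ g.2 _ x.2⟩, one_smul _ := Subtype.ext (one_smul _ _)
      mul_smul _ _ _ := Subtype.ext (mul_smul _ _ _) }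
  have := kc_le_act K (MulAction.toPermHom K E) (⨅ B ∈ E, MulAction.stabilizer (Perm α) B) fun g => ⟨fun hg =>
    Subgroup.mem_iInf.2 fun x => Subgroup.mem_iInf.2 fun hx => congrArg (fun e : Perm E => (e ⟨x, hx⟩).1) hg,
    fun hg => Equiv.ext fun x => Subtype.ext (Subgroup.mem_iInf.1 (Subgroup.mem_iInf.1 hg x.1) x.2)⟩
  rw [Fintype.card_coe] at this
  exact ⟨_, inf_le_left, fun g hg B hB => Subgroup.mem_iInf.1 (Subgroup.mem_iInf.1 hg.2 B) hB, this⟩

theorem kc_prod (h : ∀ g ∈ K, ∀ B ∈ E, g • B = B) :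
    ∃ N ≤ K, (∀ g ∈ N, ∀ B ∈ E, ∀ x ∈ B, g x = x) ∧ kc K ≤ (∏ B ∈ E, KK #B) * kc N := by
  induction E using Finset.induction_on generalizing K with
  | empty => exact ⟨K, le_rfl, by simp, by simp⟩
  | insert C E hC ih =>
    have h1 := kc_res (K := K) (B := C) fun g hg x hx => h g hg C (mem_insert_self _ _) ▸ smul_mem_smul_finset hx
    obtain ⟨N, a, b, c⟩ := ih (K := K ⊓ Fx C) fun g hg B hB => h g hg.1 B (mem_insert_of_mem hB)
    refine ⟨N, a.trans inf_le_left, fun g hg B hB => ?_, by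
      rw [prod_insert hC, mul_assoc]; exact h1.trans (Nat.mul_le_mul_left _ c)⟩
    exact (mem_insert.1 hB).elim (fun e => e ▸ (a hg).2) (b g hg B)

end Cfsg.Lib.KC
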