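import Cfsg.Agent.Lib.KC.Def

/-! S4197: the symmetric group. -/

set_option autoImplicit false

namespace Cfsg.Lib.KC

open Equiv Finset

/-- A partition of `n + 1` with a part `1`: delete it. Otherwise: decrease a smallest part by one (the result is
the only smallest part). This gives an injection into `Nat.Partition n × Bool`. -/
theorem part_succ (n : ℕ) : Fintype.card (Nat.Partition (n + 1)) ≤ 2 * Fintype.card (Nat.Partition n) := by
  have H : ∀ q : Nat.Partition (n + 1), ∃ p : Nat.Partition n × Bool, (p.2 = true ∧ q.parts = 1 ::ₘ p.1.parts) ∨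
      (p.2 = false ∧ ∃ s r, p.1.parts = s ::ₘ r ∧ q.parts = (s + 1) ::ₘ r ∧ ∀ x ∈ r, s < x) := fun q => by
    have ne : ∃ s, s ∈ q.parts := Multiset.exists_mem_of_ne_zero fun e => by
      have := q.parts_sum
      rw [e] at this
      simp at this
    obtain ⟨r, hr⟩ := Multiset.exists_cons_of_mem (Nat.find_spec ne)
    have mn : ∀ x ∈ r, Nat.find ne ≤ x := fun x hx => Nat.find_min' ne (hr ▸ Multiset.mem_cons_of_mem hx)
    have p0 := q.parts_pos (Nat.find_spec ne)
    have sm := q.parts_sum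
    have pr : ∀ {x}, x ∈ r → 0 < x := fun hx => p0.trans_le (mn _ hx)
    generalize Nat.find ne = s at *
    rw [hr, Multiset.sum_cons] at sm
    rcases s with _ | _ | s
    · omega
    · exact ⟨(⟨r, pr, by omega⟩, true), .inl ⟨rfl, hr⟩⟩
    · exact ⟨(⟨(s + 1) ::ₘ r, fun hx => (Multiset.mem_cons.1 hx).elim (fun e => by omega) pr, by
        rw [Multiset.sum_cons]; omega⟩, false), .inr ⟨rfl, s + 1, r, rfl, hr, mn⟩⟩
  choose F hF using H
  have := Fintype.card_le_of_injective F fun q q' e => Nat.Partition.ext (by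
    rcases hF q with ⟨a, b⟩ | ⟨a, s, r, b, c, d⟩ <;> rcases hF q' with ⟨a', b'⟩ | ⟨a', s', r', b', c', d'⟩
    · rw [b, b', e]
    · rw [e, a'] at a; cases a
    · rw [e, a'] at a; cases a
    · rw [e, b'] at b
      have h1 : s = s' ∨ s ∈ r' := Multiset.mem_cons.1 (b ▸ Multiset.mem_cons_self s r)
      have h2 : s' = s ∨ s' ∈ r := Multiset.mem_cons.1 (b ▸ Multiset.mem_cons_self s' r')
      obtain rfl : s = s' := h1.elim id fun k => h2.elim Eq.symm fun l => absurd (d _ l) (d' _ k).not_gt
      rw [c, c', (Multiset.cons_inj_right _).1 b])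
  rwa [Fintype.card_prod, Fintype.card_bool, mul_comm] at this

theorem part_three : Fintype.card (Nat.Partition 3) ≤ 3 := by
  refine (Finset.card_le_card_of_injOn (t := ({{3}, {1, 2}, {1, 1, 1}} : Finset (Multiset ℕ))) Nat.Partition.parts
    (fun p _ => ?_) fun _ _ _ _ => Nat.Partition.ext).trans Finset.card_le_three
  obtain ⟨s, hp, hs⟩ := p
  induction s using Quotient.inductionOn with | h l => ?_
  replace hp : ∀ i ∈ l, 0 < i := fun i hi => hp hi
  replace hs : l.sum = 3 := hs
  change (l : Multiset ℕ) ∈ _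
  rcases l with _ | ⟨a, _ | ⟨b, _ | ⟨c, _ | ⟨d, l⟩⟩⟩⟩ <;>
    simp only [List.sum_cons, List.sum_nil, List.forall_mem_cons] at hp hs
  · omega
  · obtain rfl : a = 3 := by omega
    decide
  · obtain ⟨rfl, rfl⟩ | ⟨rfl, rfl⟩ : (a = 1 ∧ b = 2) ∨ (a = 2 ∧ b = 1) := by omega
    all_goals decide
  · obtain ⟨rfl, rfl, rfl⟩ : a = 1 ∧ b = 1 ∧ c = 1 := by omega
    decide
  · omega

/-- `Equiv.Perm.partition_eq_of_isConj`, `classes_congr Subgroup.topEquiv`. -/
theorem kc_top {α : Type*} [Fintype α] [DecidableEq α] (h : 3 ≤ Fintype.card α) :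
    kc (⊤ : Subgroup (Perm α)) ≤ 3 * 2 ^ (Fintype.card α - 3) := by
  have a : ∀ k, Fintype.card (Nat.Partition (k + 3)) ≤ 3 * 2 ^ k := fun k => by
    induction k with
    | zero => exact part_three
    | succ k ih => exact (part_succ (k + 3)).trans (by rw [pow_succ]; omega)
  have b := a (Fintype.card α - 3)
  rw [Nat.sub_add_cancel h, ← Nat.card_eq_fintype_card] at b
  refine le_trans ?_ b
  rw [kc, classes_congr Subgroup.topEquiv]
  exact Nat.card_le_card_of_injective (fun c : ConjClasses (Perm α) => (Quotient.out c).partition) fun c d e =>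
    Quotient.out_equiv_out.1 (Perm.partition_eq_of_isConj.2 e)

end Cfsg.Lib.KC
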