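import Cfsg.Agent.Lib.KC.Def

/-! S4197: the class number of a `t`-transitive group. -/

set_option autoImplicit false

namespace Cfsg.Lib.KC

open Equiv Finset Cfsg.Lib.SNL
open scoped Pointwise

/-- Every element of `X` is `H`-conjugate into a set of at most `z` elements. -/
def Cov {G : Type*} [Group G] (H : Subgroup G) (X : Set G) (z : ℕ) : Prop :=
  ∃ T : Finset G, #T ≤ z ∧ ∀ x ∈ X, ∃ h ∈ H, h * x * h⁻¹ ∈ T

section gen
variable {G : Type*} [Group G] [Finite G] {H M : Subgroup G} {X : Set G} {z : ℕ}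

/-- `ConjClasses M` is covered by the classes of the elements of `T` that lie in `M`. -/
theorem Cov.kc_le (hH : H ≤ M) (h : Cov H M z) : kc M ≤ z := by
  classical
  obtain ⟨T, hT, c⟩ := h
  let f : G → ConjClasses M := fun g => if hg : g ∈ M then ConjClasses.mk ⟨g, hg⟩ else 1
  haveI := Fintype.ofFinite (ConjClasses M)
  rw [kc, Nat.card_eq_fintype_card]
  refine (card_le_card_of_surjOn f fun x _ => ?_).trans hT
  obtain ⟨x, rfl⟩ := ConjClasses.mk_surjective x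
  obtain ⟨k, hk, e⟩ := c x x.2
  have m : k * x * k⁻¹ ∈ M := mul_mem (mul_mem (hH hk) x.2) (inv_mem (hH hk))
  refine ⟨_, e, (dif_pos m).trans (ConjClasses.mk_eq_mk_iff_isConj.2 (IsConj.symm ?_))⟩
  exact isConj_iff.2 ⟨⟨k, hH hk⟩, rfl⟩

/-- Burnside (`MulAction.sum_card_fixedBy_eq_card_orbits_mul_card_group`) for the conjugation action of `H` on `↥X`
(a local `MulAction`); `T` = the `Quotient.out` representatives of the orbits. -/
theorem cov_of_sum [Fintype H] (hX : ∀ h ∈ H, ∀ y ∈ X, h * y * h⁻¹ ∈ X)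
    (hs : ∑ h : H, Nat.card {y : G // y ∈ X ∧ h.1 * y = y * h.1} ≤ z * Nat.card H) : Cov H X z := by
  classical
  letI : MulAction H X :=
    { smul h y := ⟨h.1 * y.1 * h.1⁻¹, hX _ h.2 _ y.2⟩
      one_smul y := Subtype.ext (by change (1 : G) * y.1 * (1 : G)⁻¹ = y.1; simp)
      mul_smul a b y := Subtype.ext (by
        change a.1 * b.1 * y.1 * (a.1 * b.1)⁻¹ = a.1 * (b.1 * y.1 * b.1⁻¹) * a.1⁻¹
        group) }
  haveI := Fintype.ofFinite (Quotient (MulAction.orbitRel H X))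
  haveI := fun h : H => Fintype.ofFinite (MulAction.fixedBy X h)
  have b := MulAction.sum_card_fixedBy_eq_card_orbits_mul_card_group H X
  have e : ∀ h : H, Fintype.card (MulAction.fixedBy X h) = Nat.card {y : G // y ∈ X ∧ h.1 * y = y * h.1} := fun h => by
    rw [← Nat.card_eq_fintype_card]
    exact Nat.card_congr
      { toFun y := ⟨y.1.1, y.1.2, mul_inv_eq_iff_eq_mul.1 (congrArg Subtype.val y.2)⟩
        invFun y := ⟨⟨y.1, y.2.1⟩, Subtype.ext (mul_inv_eq_iff_eq_mul.2 y.2.2)⟩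
        left_inv _ := rfl
        right_inv _ := rfl }
  rw [sum_congr rfl fun h _ => e h] at b
  rw [b, Nat.card_eq_fintype_card] at hs
  refine ⟨univ.image fun c : Quotient (MulAction.orbitRel H X) => (c.out : G),
    card_image_le.trans (Nat.le_of_mul_le_mul_right hs Fintype.card_pos), fun x hx => ?_⟩
  obtain ⟨k, hk⟩ := Quotient.mk_out (s := MulAction.orbitRel H X) ⟨x, hx⟩
  exact ⟨k, k.2, mem_image.2 ⟨_, mem_univ _, (congrArg Subtype.val hk).symm⟩⟩

/-- `card_comm_eq_card_conjClasses_mul_card`. -/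
theorem sum_cent (H : Subgroup G) [Fintype H] :
    ∑ h : H, Nat.card ↥(H ⊓ Subgroup.centralizer {h.1}) = kc H * Nat.card H := by
  rw [kc, ← card_comm_eq_card_conjClasses_mul_card, ← Nat.card_sigma]
  exact Nat.card_congr
    { toFun y := ⟨(y.1, ⟨y.2.1, y.2.2.1⟩), Subtype.ext (Subgroup.mem_centralizer_singleton_iff.1 y.2.2.2).symm⟩
      invFun y := ⟨y.1.1, y.1.2.1, y.1.2.2,
        Subgroup.mem_centralizer_singleton_iff.2 (congrArg Subtype.val y.2).symm⟩
      left_inv _ := rfl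
      right_inv _ := rfl }

end gen

variable {α : Type*} [Fintype α] [DecidableEq α] {K M : Subgroup (Perm α)} {Δ Γ : Finset α} {a : α} {y₀ : Perm α}
  {t μ κ : ℕ}

/-- The elements of `M` that agree with `y₀` on `Δ`. -/
def Ag (M : Subgroup (Perm α)) (Δ : Finset α) (y₀ : Perm α) : Set (Perm α) := {y | y ∈ M ∧ ∀ x ∈ Δ, y x = y₀ x}

/-- Some `g ∈ M` has `g • Δ = Γ` (`MT.exists_map` with `Finset.equivFinOfCardEq`), so the two groups are conjugate
(`kc_map` with `MulAut.conj g`). -/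
theorem kc_fx (h : MT M t) (hΔ : #Δ = t) (hΓ : #Γ = t) : kc (M ⊓ Fx Δ) = kc (M ⊓ Fx Γ) := by
  obtain ⟨g, hg, e⟩ := h.exists_map (fun i => ((equivFinOfCardEq hΔ).symm i : α))
    (fun i => ((equivFinOfCardEq hΓ).symm i : α))
    (Subtype.val_injective.comp (Equiv.injective _)) (Subtype.val_injective.comp (Equiv.injective _))
  rw [← kc_map (MulAut.conj g).toMonoidHom (MulAut.conj g).injective]
  congr 1
  ext y
  constructor
  · rintro ⟨x, hx, rfl⟩
    refine ⟨M.mul_mem (M.mul_mem hg hx.1) (M.inv_mem hg), fun c hc => ?_⟩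
    have := e (equivFinOfCardEq hΓ ⟨c, hc⟩)
    rw [Equiv.symm_apply_apply] at this
    change g (x (g⁻¹ c)) = c
    rw [Perm.inv_eq_iff_eq.2 this.symm, hx.2 _ (Subtype.prop _), this]
  · intro hy
    refine ⟨g⁻¹ * y * g, ⟨M.mul_mem (M.mul_mem (M.inv_mem hg) hy.1) hg, fun c hc => ?_⟩, by simp [mul_assoc]⟩
    have := e (equivFinOfCardEq hΔ ⟨c, hc⟩)
    rw [Equiv.symm_apply_apply] at this
    change g⁻¹ (y (g c)) = c
    rw [Perm.inv_eq_iff_eq, this, hy.2 _ (Subtype.prop _)]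

/-- Let `H = M ⊓ Fx (insert a Δ)`, `h ∈ H`, `C = M ⊓ Fx Δ ⊓ centralizer {h}`. If `y₁ ∈ Ag` commutes with `h`, then
`y ↦ y₁⁻¹ * y` embeds the counted set into `C`, and `Nat.card C = #(orb C a) * Nat.card (C ⊓ Fx {a})` (`cx_card`),
`C ⊓ Fx {a} = H ⊓ centralizer {h}`, `orb C a ⊆ (Δ ∪ h.support)ᶜ`, a disjoint union. -/
theorem card_ag (ha : a ∉ Δ) {h : Perm α} (hh : h ∈ M ⊓ Fx (insert a Δ)) :
    Nat.card {y : Perm α // y ∈ Ag M Δ y₀ ∧ h * y = y * h} ≤
      (Fintype.card α - #Δ - #h.support) * Nat.card ↥(M ⊓ Fx (insert a Δ) ⊓ Subgroup.centralizer {h}) := by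
  rcases isEmpty_or_nonempty {y : Perm α // y ∈ Ag M Δ y₀ ∧ h * y = y * h} with n | ⟨⟨y₁, h1, h2⟩⟩
  · simp
  have a1 : Nat.card {y : Perm α // y ∈ Ag M Δ y₀ ∧ h * y = y * h} ≤
      Nat.card ↥(M ⊓ Fx Δ ⊓ Subgroup.centralizer {h}) :=
    Nat.card_le_card_of_injective (fun y => ⟨y₁⁻¹ * y.1, ⟨M.mul_mem (M.inv_mem h1.1) y.2.1.1, fun x hx => by
      rw [Perm.mul_apply, Perm.inv_eq_iff_eq, y.2.1.2 x hx, h1.2 x hx]⟩,
      Subgroup.mul_mem _ (Subgroup.inv_mem _ (Subgroup.mem_centralizer_singleton_iff.2 h2.symm))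
        (Subgroup.mem_centralizer_singleton_iff.2 y.2.2.symm)⟩)
      fun y y' e => Subtype.ext (mul_left_cancel (congrArg Subtype.val e))
  have a2 : M ⊓ Fx Δ ⊓ Subgroup.centralizer {h} ⊓ Fx {a} = M ⊓ Fx (insert a Δ) ⊓ Subgroup.centralizer {h} := by
    ext g
    simp only [Subgroup.mem_inf, mem_Fx, forall_mem_insert, mem_singleton, forall_eq]
    tauto
  rw [cx_card _ a, a2] at a1
  refine a1.trans (Nat.mul_le_mul_right _ ?_)
  have d : Disjoint Δ h.support := disjoint_left.2 fun x hx k => Perm.mem_support.1 k (hh.2 x (mem_insert_of_mem hx))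
  rw [Nat.sub_sub, ← card_union_of_disjoint d, ← card_compl]
  refine card_le_card fun y hy => mem_compl.2 fun k => ?_
  obtain ⟨g, hg, rfl⟩ := mem_orb.1 hy
  rcases mem_union.1 k with k | k
  · exact ha (g.injective (hg.1.2 _ k) ▸ k)
  · refine Perm.mem_support.1 k ?_
    rw [← Perm.mul_apply, ← Subgroup.mem_centralizer_singleton_iff.1 hg.2, Perm.mul_apply, hh.2 a (mem_insert_self _ _)]

/-- `cov_of_sum`, `card_ag`, `sum_cent`: the factor is at most `n - #Δ - μ` for `h ≠ 1`, and at most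
`μ + (n - #Δ - μ)` for `h = 1`. -/
theorem cov_base (ha : a ∉ Δ) (hy : ∀ x ∈ Δ, y₀ x ∈ insert a Δ) (hμ : MinD M μ) :
    Cov (M ⊓ Fx (insert a Δ)) (Ag M Δ y₀) (μ + kc (M ⊓ Fx (insert a Δ)) * (Fintype.card α - #Δ - μ)) := by
  classical
  haveI := Fintype.ofFinite ↥(M ⊓ Fx (insert a Δ))
  refine cov_of_sum (fun h hh y hy' => ⟨mul_mem (mul_mem hh.1 hy'.1) (inv_mem hh.1), fun x hx => ?_⟩) ?_
  · rw [Perm.mul_apply, Perm.mul_apply, Perm.inv_eq_iff_eq.2 (hh.2 x (mem_insert_of_mem hx)).symm, hy'.2 x hx,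
      hh.2 _ (hy x hx)]
  · refine (sum_le_sum (g := fun h : ↥(M ⊓ Fx (insert a Δ)) =>
      (if h = 1 then μ * Nat.card ↥(M ⊓ Fx (insert a Δ)) else 0) + (Fintype.card α - #Δ - μ) *
        Nat.card ↥(M ⊓ Fx (insert a Δ) ⊓ Subgroup.centralizer {h.1})) fun h _ => (card_ag ha h.2).trans ?_).trans_eq ?_
    · split_ifs with e
      · have : Nat.card ↥(M ⊓ Fx (insert a Δ) ⊓ Subgroup.centralizer {h.1}) = Nat.card ↥(M ⊓ Fx (insert a Δ)) := by
          rw [inf_eq_left.2 fun g _ => Subgroup.mem_centralizer_singleton_iff.2 (by rw [e]; simp)]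
        rw [this, ← add_mul]
        exact Nat.mul_le_mul_right _ (by omega)
      · have := hμ h.1 h.2.1 fun k => e (Subtype.ext k)
        rw [zero_add]
        exact Nat.mul_le_mul_right _ (by omega)
    · rw [sum_add_distrib, ← mul_sum, sum_cent, sum_ite_eq', if_pos (mem_univ _)]
      ring

/-- Induction on `j` (all `Δ a y₀`). Step: put `Δ' = insert a Δ`, take `b ∉ Δ'`. The `y ∈ Ag` with `y a ∈ Δ'` agree on
`Δ'` (`y a` is the only point of `Δ'` outside the image of `Δ`), so they lie in `Ag M Δ' y₁` for any one `y₁` of them.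
Any other `y` is conjugated by some `h ∈ M ⊓ Fx Δ'` with `h (y a) = b` into `Ag M Δ' y₂`, where `y₂ ∈ Ag`, `y₂ a = b`.
Take the union of the two covers. -/
theorem cov_step (h : MT M t) (ht : t ≤ Fintype.card α) (hμ : MinD M μ) (hκ : ∀ Γ, #Γ = t → kc (M ⊓ Fx Γ) ≤ κ)
    (j : ℕ) (hj : #Δ + 1 + j = t) (ha : a ∉ Δ) (hy : ∀ x ∈ Δ, y₀ x ∈ insert a Δ) :
    Cov (M ⊓ Fx (insert a Δ)) (Ag M Δ y₀) (2 ^ j * (μ + κ * (Fintype.card α + 1 - t - μ))) := by
  induction j generalizing Δ a y₀ with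
  | zero =>
    obtain ⟨T, hT, c⟩ := cov_base ha hy hμ
    refine ⟨T, hT.trans ?_, c⟩
    rw [pow_zero, one_mul, show Fintype.card α + 1 - t = Fintype.card α - #Δ by omega]
    exact Nat.add_le_add_left (Nat.mul_le_mul_right _ (hκ _ (by rw [card_insert_of_notMem ha]; omega))) _
  | succ j ih =>
    have c1 : #(insert a Δ) = #Δ + 1 := card_insert_of_notMem ha
    obtain ⟨b, hb⟩ : ∃ b, b ∉ insert a Δ := by
      by_contra! n
      have := card_le_card (s := univ) fun x _ => n x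
      rw [card_univ] at this
      omega
    have key : ∀ P : Perm α → Prop, (∀ y ∈ Ag M Δ y₀, ∀ y' ∈ Ag M Δ y₀, P y → P y' → y a = y' a) →
        (∀ y ∈ Ag M Δ y₀, P y → y a ∈ insert b (insert a Δ)) →
        Cov (M ⊓ Fx (insert a Δ)) {y | y ∈ Ag M Δ y₀ ∧ P y} (2 ^ j * (μ + κ * (Fintype.card α + 1 - t - μ))) := by
      intro P u v
      by_cases n : ∃ y ∈ Ag M Δ y₀, P y
      · obtain ⟨y₁, h1, h2⟩ := n
        obtain ⟨T, hT, c⟩ := ih (Δ := insert a Δ) (a := b) (y₀ := y₁) (by omega) hb fun x hx =>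
          (mem_insert.1 hx).elim (fun e => e ▸ v _ h1 h2) fun e => h1.2 x e ▸ mem_insert_of_mem (hy x e)
        refine ⟨T, hT, fun y hy' => ?_⟩
        obtain ⟨k, hk, e⟩ := c y ⟨hy'.1.1, fun x hx => (mem_insert.1 hx).elim (fun e => e ▸ u _ hy'.1 _ h1 hy'.2 h2)
          fun e => (hy'.1.2 x e).trans (h1.2 x e).symm⟩
        exact ⟨k, ⟨hk.1, fun x hx => hk.2 x (mem_insert_of_mem hx)⟩, e⟩
      · exact ⟨∅, Nat.zero_le _, fun y hy' => (n ⟨y, hy'⟩).elim⟩
    obtain ⟨T₁, t1, k1⟩ := key (fun y => y a ∈ insert a Δ) (fun y u y' v p p' => by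
      obtain ⟨x, hx, e⟩ := surj_on_of_inj_on_of_card_le (s := insert a Δ) (t := insert a Δ) (fun x _ => y' x)
        (fun x hx => (mem_insert.1 hx).elim (fun e => e ▸ p') fun e => v.2 x e ▸ hy x e)
        (fun _ _ _ _ e => y'.injective e) le_rfl _ p
      rcases mem_insert.1 hx with rfl | k
      · exact e
      · exact (ha (y.injective (e.trans ((v.2 x k).trans (u.2 x k).symm)) ▸ k)).elim) fun _ _ => mem_insert_of_mem
    obtain ⟨T₂, t2, k2⟩ := key (fun y => y a = b) (fun y _ y' _ p p' => p.trans p'.symm) fun _ _ p =>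
      p ▸ mem_insert_self _ _
    refine ⟨T₁ ∪ T₂, (card_union_le _ _).trans (by rw [pow_succ, mul_right_comm]; omega), fun y u => ?_⟩
    by_cases n : y a ∈ insert a Δ
    · exact (k1 y ⟨u, n⟩).imp fun k => And.imp_right (mem_union_left _)
    · obtain ⟨g, hg, e⟩ := h (insert a Δ) (by omega) _ (mem_compl.2 n) _ (mem_compl.2 hb)
      have i : ∀ x ∈ insert a Δ, (g * y * g⁻¹) x = g (y x) := fun x hx => by
        rw [Perm.mul_apply, Perm.mul_apply, Perm.inv_eq_iff_eq.2 (hg.2 x hx).symm]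
      obtain ⟨k, hk, e'⟩ := k2 (g * y * g⁻¹) ⟨⟨mul_mem (mul_mem hg.1 u.1) (inv_mem hg.1), fun x hx => by
        rw [i x (mem_insert_of_mem hx), u.2 x hx, hg.2 _ (hy x hx)]⟩, (i a (mem_insert_self _ _)).trans e⟩
      exact ⟨k * g, mul_mem hk hg, mem_union_right _ (by convert e' using 1; group)⟩

/-- `cov_step` with `Δ = ∅`, `y₀ = 1`; `kc_fx`, `Cov.kc_le`. -/
theorem strip (h : MT M t) (hΔ : #Δ = t) (ht : 1 ≤ t) (hμ : MinD M μ) :
    kc M ≤ 2 ^ (t - 1) * (μ + kc (M ⊓ Fx Δ) * (Fintype.card α + 1 - t - μ)) := by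
  obtain ⟨a, -⟩ := card_pos.1 (hΔ.symm ▸ ht : 0 < #Δ)
  obtain ⟨T, hT, c⟩ := cov_step (Δ := ∅) (a := a) (y₀ := 1) h (hΔ ▸ card_le_univ Δ) hμ
    (fun Γ hΓ => (kc_fx h hΓ hΔ).le) (t - 1) (by rw [card_empty]; omega) (notMem_empty a) (by simp)
  exact Cov.kc_le inf_le_left ⟨T, hT, fun x hx => c x ⟨hx, by simp⟩⟩

end Cfsg.Lib.KC
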