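import Cfsg.Agent.Lib.KC.Cell
import Cfsg.Agent.Lib.KC.Str
import Cfsg.Agent.Lib.KC.Part

/-! S4197: the induction. -/

set_option autoImplicit false

namespace Cfsg.Lib.KC

open Equiv Finset Cfsg.Lib.SNL
open scoped Pointwise

variable {α : Type*} [Fintype α] [DecidableEq α] {M : Subgroup (Perm α)} {Δ : Finset α} {a : α}

omit [Fintype α] in
theorem fx_insert : M ⊓ Fx (insert a Δ) = M ⊓ Fx Δ ⊓ Fx {a} := by
  ext g
  simp only [Subgroup.mem_inf, mem_Fx, mem_insert, mem_singleton, forall_eq_or_imp, forall_eq]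
  tauto

omit [Fintype α] [DecidableEq α] in
theorem fx_empty : M ⊓ Fx ∅ = M := inf_eq_left.2 fun _ _ _ h => absurd h (notMem_empty _)

theorem fx_bot {R : Finset α} (h : M ≤ Fx Rᶜ) : M ⊓ Fx R = ⊥ :=
  eq_bot_iff.2 fun g hg => Equiv.ext fun x => (em (x ∈ R)).elim (hg.2 x) fun e => h hg.1 x (mem_compl.2 e)

theorem mt_one (h : Tr M univ) : MT M 1 := fun Δ hΔ => by
  rwa [card_eq_zero.1 (Nat.lt_one_iff.1 hΔ), fx_empty, compl_empty]

theorem giant (h3 : 3 ≤ Fintype.card α) (hA : alternatingGroup α ≤ M) : kc M ≤ 3 * 2 ^ (Fintype.card α - 3) := by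
  have := Fintype.one_lt_card_iff_nontrivial.1 (show 1 < Fintype.card α by omega)
  rcases (Nat.dvd_prime Nat.prime_two).1 (alternatingGroup.index_eq_two (α := α) ▸ Subgroup.index_dvd_of_le hA)
    with e | e
  · rw [Subgroup.index_eq_one.1 e]; exact kc_top h3
  obtain rfl := Perm.eq_alternatingGroup_of_index_eq_two e
  obtain ⟨Δ, -, hΔ⟩ := exists_subset_card_eq (s := (univ : Finset α)) (n := Fintype.card α - 2) (by simp)
  have := strip (μ := 3) (M := alternatingGroup α) (fun Γ hΓ x hx y hy => ?_) hΔ (by omega) fun g hg h1 => ?_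
  · rwa [show Fintype.card α + 1 - (Fintype.card α - 2) - 3 = 0 by omega, mul_zero, add_zero, mul_comm] at this
  · obtain rfl | n := eq_or_ne x y
    · exact ⟨1, one_mem _, rfl⟩
    obtain ⟨z, hz, k⟩ : ∃ z ∈ Γᶜ, z ∉ ({x, y} : Finset α) :=
      exists_mem_notMem_of_card_lt_card (by rw [card_compl, card_pair n]; omega)
    rw [mem_insert, mem_singleton, not_or] at k
    refine ⟨swap x y * swap y z, ⟨by simp [Perm.mem_alternatingGroup, n, Ne.symm k.2], fun w hw => ?_⟩, ?_⟩
    · have j : ∀ v ∈ Γᶜ, w ≠ v := fun v hv e => mem_compl.1 hv (e ▸ hw)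
      rw [Perm.mul_apply, swap_apply_of_ne_of_ne (j y hy) (j z hz), swap_apply_of_ne_of_ne (j x hx) (j y hy)]
    · rw [Perm.mul_apply, swap_apply_of_ne_of_ne n (Ne.symm k.1), swap_apply_left]
  · refine (Perm.two_le_card_support_of_ne_one h1).lt_of_ne fun e => ?_
    have := Perm.mem_alternatingGroup.1 hg
    rw [(Perm.card_support_eq_two.1 e.symm).sign_eq] at this
    exact absurd this (by decide)

theorem prim (IH : ∀ j < Fintype.card α, KK j ≤ bd j) (h : Pr M univ) (hA : ¬ alternatingGroup α ≤ M) :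
    kc M ≤ 3 * 2 ^ (Fintype.card α - 3) := by
  classical
  obtain ⟨Δ, hΔ, hm⟩ := exists_max_image {Δ : Finset α | Pr (M ⊓ Fx Δ) Δᶜ ∧ MT M #Δ} card
    ⟨∅, mem_filter.2 ⟨mem_univ _, by rwa [fx_empty, compl_empty], fun _ h => absurd h (Nat.not_lt_zero _)⟩⟩
  obtain ⟨-, hp, ht⟩ := mem_filter.1 hΔ
  have ht' := ht.succ rfl hp.1
  have hn : #Δ + 3 < Fintype.card α := lt_of_not_ge fun c => hA (IsMultiplyPretransitive.alternatingGroup_le _ M
    (by rw [Nat.card_eq_fintype_card]; exact (ht'.mono (by omega)).multi))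
  obtain ⟨a, ha⟩ : Δᶜ.Nonempty := card_pos.1 (by rw [card_compl]; omega)
  have hc := card_insert_of_notMem (mem_compl.1 ha)
  have hnp : ¬ Pr (M ⊓ Fx (insert a Δ)) (insert a Δ)ᶜ := fun c => by
    have := hm _ (mem_filter.2 ⟨mem_univ _, c, hc ▸ ht'⟩); omega
  have hR : #(insert a Δ)ᶜ = Fintype.card α - (#Δ + 1) := by rw [card_compl, hc]
  have hle : ∀ Γ : Finset α, M ⊓ Fx Γ ≤ Fx Γᶜᶜ := fun Γ => by rw [compl_compl]; exact inf_le_right
  have key : kc (M ⊓ Fx (insert a Δ)) * (#(insert a Δ)ᶜ - 2) ≤ 3 * 2 ^ (#(insert a Δ)ᶜ - 2) := by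
    by_cases hf : ∀ x ∈ (insert a Δ)ᶜ, ∃ g ∈ M ⊓ Fx (insert a Δ), g x ≠ x
    · obtain ⟨P, hP, h2, hs, -, hJ⟩ := exists_cells (hle _) hf hnp
      refine cell (fun j hj => IH j (by omega)) hP (hle _) h2 hs (fun B hB g hg hx => by_contra fun h1 => ?_)
        fun h8 g hg => mind5 h (by omega) hA g hg.1
      have j := hJ B hB g hg h1 hx
      by_cases c : 2 * #B < Fintype.card α
      · exact hA (jordan_small h (hs B hB) c fun x hx y hy =>
          let ⟨g, a, b⟩ := j x hx y hy; ⟨g, ⟨a.1.1, a.2⟩, b⟩)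
      have sub := hP.sub B hB
      have t := jordan2 (hle Δ) hp (sub.trans (compl_subset_compl.2 (subset_insert _ _))) (hs B hB)
        (fun e => mem_compl.1 (sub (e ▸ ha)) (mem_insert_self _ _))
        (fun x hx y hy => let ⟨g, a, b⟩ := j x hx y hy; ⟨g, ⟨(fx_insert.le a.1).1, a.2⟩, b⟩) ha
      rw [← fx_insert, ← compl_insert] at t
      obtain ⟨C, hC, n⟩ := exists_mem_ne (show 1 < #P from h2) B
      obtain ⟨x, hx⟩ := card_pos.1 (show 0 < #B by have := hs B hB; omega)
      obtain ⟨y, hy⟩ := card_pos.1 (show 0 < #C by have := hs C hC; omega)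
      obtain ⟨k, hk, e⟩ := t x (sub hx) y (hP.sub C hC hy)
      have e1 := hP.dis _ (hP.inv k hk B hB) C hC y (e ▸ smul_mem_smul_finset hx) hy
      have e2 := card_le_card (union_subset sub (hP.sub C hC))
      rw [card_union_of_disjoint (disjoint_left.2 fun z u v => n (hP.dis C hC B hB z v u)), ← e1,
        card_smul_finset] at e2
      omega
    · push Not at hf
      obtain ⟨x, hx, hf⟩ := hf
      rw [compl_insert, mem_erase] at hx
      rw [fx_insert, nofix (hle Δ) hp ha hx.2 hx.1 fun g hg e => hf g (fx_insert.ge ⟨hg, by simpa [mem_Fx]⟩), kc_bot]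
      have := (#(insert a Δ)ᶜ - 2).lt_two_pow_self
      omega
  have h1 := num5 (by omega) key
  refine (strip ht' hc (by omega) (mind4 h hA)).trans ?_
  rw [hR] at h1
  rw [show Fintype.card α + 1 - (#Δ + 1) - 4 = Fintype.card α - (#Δ + 1) - 3 by omega,
    show Fintype.card α - 3 = #Δ + 1 - 1 + (Fintype.card α - (#Δ + 1) - 2) by omega, pow_add, mul_left_comm]
  exact Nat.mul_le_mul_left _ h1

theorem intr (IH : ∀ j < Fintype.card α, KK j ≤ bd j) (h3 : 3 ≤ Fintype.card α) (h : ¬ Tr M univ) :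
    kc M ≤ 3 * 2 ^ (Fintype.card α - 3) := by
  simp only [Tr, mem_univ, forall_const, not_forall] at h
  obtain ⟨x, y, h⟩ := h
  have h1 := kc_res (K := M) (B := orb M x) fun g hg z hz => cx_app hg hz
  have h2 := kc_res (K := M ⊓ Fx (orb M x)) (B := (orb M x)ᶜ) fun g hg z hz => mem_compl.2 fun e =>
    mem_compl.1 hz (by simpa using cx_app (M.inv_mem hg.1) e)
  rw [fx_bot (M := M ⊓ Fx (orb M x)) (R := (orb M x)ᶜ) (by rw [compl_compl]; exact inf_le_right), kc_bot, mul_one,
    card_compl] at h2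
  have h4 : 0 < #(orb M x) := card_pos.2 ⟨x, cx_self M x⟩
  have h5 : #(orb M x) < Fintype.card α := card_lt_univ_of_notMem (x := y) fun e => h (mem_orb.1 e)
  have h6 := Nat.mul_le_mul ((IH _ h5).trans (bd_le _)) (h2.trans ((IH _ (by omega)).trans (bd_le _)))
  rw [← pow_add, show #(orb M x) - 1 + (Fintype.card α - #(orb M x) - 1) = Fintype.card α - 3 + 1 by omega,
    pow_succ] at h6
  omega

theorem impr (IH : ∀ j < Fintype.card α, KK j ≤ bd j) (h3 : 3 ≤ Fintype.card α) (h : Tr M univ) (hp : ¬ Pr M univ) :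
    kc M ≤ 3 * 2 ^ (Fintype.card α - 3) := by
  have := Fintype.one_lt_card_iff_nontrivial.1 (show 1 < Fintype.card α by omega)
  have hM : M ≤ Fx univᶜ := fun _ _ _ h => absurd (mem_univ _) (mem_compl.1 h)
  obtain ⟨P, hP, h2, hs, -, -⟩ := exists_cells hM (fun x _ => let ⟨y, hy⟩ := exists_ne x
    let ⟨g, a, b⟩ := h x (mem_univ _) y (mem_univ _); ⟨g, a, b ▸ hy⟩) hp
  have hc := cell_card hP hs
  have hW := prod_two hP hs
  have hlt : ∀ B ∈ P, #B < Fintype.card α := fun B hB => by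
    obtain ⟨C, hC, n⟩ := exists_mem_ne (show 1 < #P from h2) B
    obtain ⟨y, hy⟩ := card_pos.1 (show 0 < #C by have := hs C hC; omega)
    exact card_lt_univ_of_notMem fun e => n (hP.dis C hC B hB y hy e)
  rw [card_univ] at hc hW
  obtain ⟨N, hN, hi, hk⟩ := kc_fam hP.inv
  obtain ⟨T, a, b, c⟩ := kc_prod hi
  have hT : T = ⊥ := eq_bot_iff.2 fun g hg => Equiv.ext fun x => let ⟨B, k, k'⟩ := hP.cov x (mem_univ _); b g hg B k x k'
  rw [hT, kc_bot, mul_one] at c
  have p1 := prod_bd hs fun B hB => IH _ (hlt B hB)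
  have p2 := num3 p1
  have h1 := IH #P (by omega)
  generalize ∏ B ∈ P, 2 ^ (#B - 1) = W at *
  obtain ⟨n, hn⟩ : ∃ n, Fintype.card α = n + 3 := ⟨Fintype.card α - 3, by omega⟩
  rw [hn, pow_add] at hW
  by_cases c2 : #P = 2
  · rw [c2] at hW h1 hk
    have h4 := hk.trans (Nat.mul_le_mul (h1.trans (bd_le 2)) c)
    obtain e | ⟨j, e⟩ := (#{B ∈ P | #B ≠ 2}).eq_zero_or_eq_succ_pred.imp_right fun e => (⟨_, e⟩ : ∃ j, _ = j + 1)
    · have e2 : ∀ B ∈ P, #B = 2 := fun B hB => by_contra fun k =>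
        notMem_empty B (card_eq_zero.1 e ▸ mem_filter.2 ⟨hB, k⟩)
      have e4 : Fintype.card α = 4 := by
        rw [← card_univ, ← hP.sum_card, sum_congr rfl e2, sum_const, c2]; rfl
      obtain ⟨B, hB⟩ := card_pos.1 (show 0 < #P by omega)
      obtain ⟨x, y, n, rfl⟩ := card_eq_two.1 (e2 B hB)
      have f : ∀ g ∈ M ⊓ Fx {x}, ∀ z ∈ ({x, y} : Finset α), g z = z := fun g hg z hz => by
        have g1 : g x = x := hg.2 x (mem_singleton_self x)
        have g2 := hP.dis _ (hP.inv g hg.1 _ hB) _ hB x (mem_smul_finset.2 ⟨x, mem_insert_self _ _, g1⟩)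
          (mem_insert_self _ _)
        obtain rfl | k := mem_insert.1 hz
        · exact g1
        have g3 : g z ∈ ({x, y} : Finset α) := g2 ▸ smul_mem_smul_finset hz
        rw [mem_singleton.1 k] at g3 ⊢
        exact (mem_insert.1 g3).elim (fun e => absurd (g.injective (g1.trans e.symm)) n) mem_singleton.1
      have h5 := kc_res (K := M ⊓ Fx {x}) (B := {x, y}ᶜ) fun g hg z hz => mem_compl.2 fun e =>
        mem_compl.1 hz (g.injective (f g hg _ e) ▸ e)
      rw [fx_bot (M := M ⊓ Fx {x}) (R := {x, y}ᶜ) (by rw [compl_compl]; exact f), kc_bot, mul_one, card_compl,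
        card_pair n, e4] at h5
      have h6 := strip (mt_one h) (card_singleton x) le_rfl fun g _ => Perm.two_le_card_support_of_ne_one
      have h7 := h5.trans ((IH 2 (by omega)).trans (bd_le 2))
      rw [e4] at h6 ⊢
      omega
    · rw [e, pow_succ, pow_succ, ← mul_assoc, mul_right_comm, mul_assoc (3 ^ j)] at p1
      have := num3 p1
      rw [hn, Nat.add_sub_cancel]
      omega
  · have h4 := bd_eq (n := #P) (by omega)
    obtain ⟨p, hp⟩ : ∃ p, #P = p + 1 := ⟨#P - 1, by omega⟩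
    rw [hp, pow_succ] at hW
    rw [hp, Nat.add_sub_cancel] at h4
    rw [hp] at h1 hk
    have := hk.trans (Nat.mul_le_mul h1 (c.trans p2))
    rw [hn, Nat.add_sub_cancel]
    nlinarith

theorem KK_le_bd (n : ℕ) : KK n ≤ bd n := by
  induction n using Nat.strong_induction_on with | _ n IH =>
  refine KK_le fun M => ?_
  unfold bd
  split_ifs with h
  · refine (kc_le_card M).trans ((Subgroup.card_le_card_group M).trans ?_)
    rw [Nat.card_perm, Nat.card_fin]
    interval_cases n <;> decide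
  rw [← Fintype.card_fin n] at IH h
  have : kc M ≤ 3 * 2 ^ (Fintype.card (Fin n) - 3) := by
    by_cases h1 : Tr M univ
    · by_cases h2 : Pr M univ
      · exact (em _).elim (giant (by omega)) (prim IH h2)
      · exact impr IH (by omega) h1 h2
    · exact intr IH (by omega) h1
  rwa [Fintype.card_fin] at this

end Cfsg.Lib.KC
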